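import Cfsg.Agent.H142.EP.T4

/-!
# S4929: `C_G(P)` a `p`-group, from the centralizer of one `p`-element (helper585)

* `evAt_of_sylow` : [T4] for one Sylow subgroup, given as the condition that no element of prime order `r ≠ p`
  centralizes it;
* `SylC p Y` : no element of prime order `r ≠ p` of `Y` centralizes a Sylow `p`-subgroup of `Y`;
* `evAt_of_cent` : a `p`-element `x`, a surjection `f : C_G(x) →* Y` with kernel a `p`-group, `SylC p Y`.
-/

set_option autoImplicit false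

open Cfsg Cfsg.Agent.Characters.Core Cfsg.Agent.H892.EP Subgroup

namespace Cfsg.Agent.H585.EP

universe u v

/-- a power of prime order `r ≠ p` of an element which is not a `p`-element -/
theorem exists_pow_prime {G : Type u} [Group G] [Finite G] {p : ℕ} (hp : p.Prime) {g : G}
    (hg : ¬ ∃ k : ℕ, g ^ p ^ k = 1) : ∃ m : ℕ, (orderOf (g ^ m)).Prime ∧ orderOf (g ^ m) ≠ p := by
  have h0 : 0 < orderOf g := orderOf_pos g
  obtain ⟨k, n, hn, hkn⟩ := Nat.exists_eq_pow_mul_and_not_dvd h0.ne' p hp.one_lt.ne'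
  have hn1 : n ≠ 1 := by
    rintro rfl
    apply hg
    refine ⟨k, ?_⟩
    rw [← orderOf_dvd_iff_pow_eq_one, hkn, mul_one]
  obtain ⟨r, hr, hrn⟩ := Nat.exists_prime_and_dvd hn1
  have hrg : r ∣ orderOf g := by
    rw [hkn]
    exact hrn.mul_left _
  refine ⟨orderOf g / r, ?_⟩
  have h1 : orderOf (g ^ (orderOf g / r)) = r := by
    rw [orderOf_pow_of_dvd (Nat.div_pos (Nat.le_of_dvd h0 hrg) hr.pos).ne' (Nat.div_dvd_of_dvd hrg),
      Nat.div_div_self hrg h0.ne']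
  rw [h1]
  refine ⟨hr, ?_⟩
  rintro rfl
  exact hn hrn

/-- **[T4]**, one Sylow subgroup, elements of prime order -/
theorem evAt_of_sylow {G : Type u} [Group G] [Finite G] {p : ℕ} [hp : Fact p.Prime] (P : Sylow p G)
    (hC : ∀ x : G, (∀ y ∈ (P : Subgroup G), y * x = x * y) → (orderOf x).Prime → orderOf x ≠ p → False)
    {d : ℕ} (hd : ∃ χ : G → ℂ, IsIrrCharacter G χ ∧ χ 1 = d) (h2 : 2 ∣ d) (hpd : ¬ p ∣ d) : EvAt p G := by
  obtain ⟨χ, hχ, h1⟩ := hd
  have h3 : charDegree χ = d := Cfsg.Agent.Blocks.Basic.charDegree_of_eq h1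
  refine Cfsg.Agent.H142.EP.evAt_of_centralizer P ?_ ⟨χ, hχ⟩ (by show 2 ∣ charDegree χ; rw [h3]; exact h2)
    (by show ¬ p ∣ charDegree χ; rw [h3]; exact hpd)
  intro g hg
  by_contra h4
  obtain ⟨m, hm, hmp⟩ := exists_pow_prime hp.out h4
  refine hC (g ^ m) ?_ hm hmp
  intro y hy
  have h5 := mem_centralizer_iff.1 hg y hy
  exact ((show Commute y g from h5).pow_right m).eq

/-- no element of prime order `r ≠ p` centralizes a Sylow `p`-subgroup -/
def SylC (p : ℕ) (Y : Type v) [Group Y] : Prop :=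
  ∃ Q : Sylow p Y, ∀ y : Y, (∀ q ∈ (Q : Subgroup Y), q * y = y * q) → (orderOf y).Prime → orderOf y ≠ p → False

theorem SylC.all {p : ℕ} [hp : Fact p.Prime] {Y : Type v} [Group Y] [Finite Y] (h : SylC p Y) (Q : Sylow p Y) {y : Y}
    (hy : ∀ q ∈ (Q : Subgroup Y), q * y = y * q) (hyo : (orderOf y).Prime) (hyp : orderOf y ≠ p) : False := by
  obtain ⟨Q₀, hQ₀⟩ := h
  obtain ⟨g, hg⟩ := MulAction.exists_smul_eq Y Q₀ Q
  have ho : orderOf (g⁻¹ * y * g) = orderOf y := by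
    have := MulEquiv.orderOf_eq (MulAut.conj g⁻¹) y
    rwa [MulAut.conj_apply, inv_inv] at this
  refine hQ₀ (g⁻¹ * y * g) (fun q hq => ?_) (by rw [ho]; exact hyo) (by rw [ho]; exact hyp)
  have h1 : g * q * g⁻¹ ∈ (Q : Subgroup Y) := by
    rw [← hg]
    exact Subgroup.smul_mem_pointwise_smul q (MulAut.conj g) (Q₀ : Subgroup Y) hq
  have h2 := hy _ h1
  calc q * (g⁻¹ * y * g) = g⁻¹ * (g * q * g⁻¹ * y) * g := by group
    _ = g⁻¹ * (y * (g * q * g⁻¹)) * g := by rw [h2]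
    _ = g⁻¹ * y * g * q := by group

/-- `SylC` from the orders of the centralizers -/
theorem SylC.of_card {p : ℕ} [hp : Fact p.Prime] {Y : Type v} [Group Y] [Finite Y] {n : ℕ} (hn : p ^ n ∣ Nat.card Y)
    (hY : ∀ y : Y, (orderOf y).Prime → orderOf y ≠ p → ¬ p ^ n ∣ Nat.card ↥(centralizer ({y} : Set Y))) : SylC p Y := by
  obtain ⟨Q⟩ : Nonempty (Sylow p Y) := inferInstance
  refine ⟨Q, fun y hy hyo hyp => hY y hyo hyp ?_⟩
  have hQY : p ^ n ∣ Nat.card (Q : Subgroup Y) := by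
    rw [Sylow.card_eq_multiplicity]
    exact pow_dvd_pow p ((hp.out.pow_dvd_iff_le_factorization Nat.card_pos.ne').1 hn)
  refine hQY.trans (Subgroup.card_dvd_of_le fun q hq => ?_)
  rw [mem_centralizer_singleton_iff]
  exact hy q hq

/-- `SylC` from two commuting elements of order `p` -/
theorem SylC.of_pair {p : ℕ} [hp : Fact p.Prime] {Y : Type v} [Group Y] [Finite Y] {x y : Y} (hx : orderOf x = p)
    (hy : orderOf y = p) (hxy : y * x = x * y)
    (h : ∀ q : ℕ, q.Prime → q ≠ p →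
      ¬ q ∣ Nat.card ↥(centralizer ({x} : Set Y) ⊓ centralizer ({y} : Set Y))) : SylC p Y := by
  have h1 : IsPGroup p (zpowers x) := IsPGroup.of_card (n := 1) (by rw [Nat.card_zpowers, hx, pow_one])
  have h2 : IsPGroup p (zpowers y) := IsPGroup.of_card (n := 1) (by rw [Nat.card_zpowers, hy, pow_one])
  have h3 : IsPGroup p ↥(zpowers x ⊔ zpowers y) := by
    refine IsPGroup.to_sup_of_normal_right' h1 h2 ?_
    rw [zpowers_le]
    apply Subgroup.centralizer_le_normalizer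
    rw [Subgroup.mem_centralizer_iff]
    rintro _ ⟨k, rfl⟩
    exact (((show Commute y x from hxy).zpow_left k).eq)
  obtain ⟨Q, hQ⟩ := h3.exists_le_sylow
  refine ⟨Q, fun g hg hgo hgp => h _ hgo hgp ?_⟩
  have hxQ : x ∈ (Q : Subgroup Y) := hQ ((le_sup_left : zpowers x ≤ _) (mem_zpowers x))
  have hyQ : y ∈ (Q : Subgroup Y) := hQ ((le_sup_right : zpowers y ≤ _) (mem_zpowers y))
  have hm : g ∈ centralizer ({x} : Set Y) ⊓ centralizer ({y} : Set Y) :=
    mem_inf.2 ⟨mem_centralizer_singleton_iff.2 (hg x hxQ).symm, mem_centralizer_singleton_iff.2 (hg y hyQ).symm⟩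
  rw [← Subgroup.orderOf_mk g hm]
  exact orderOf_dvd_natCard _

/-- **[T4]** from the centralizer of a `p`-element -/
theorem evAt_of_cent {G : Type u} [Group G] [Finite G] {p : ℕ} [hp : Fact p.Prime] {x : G}
    (hx : ∃ k : ℕ, x ^ p ^ k = 1) {Y : Type v} [Group Y] [Finite Y] (f : ↥(centralizer ({x} : Set G)) →* Y)
    (hf : Function.Surjective f) (hk : ∀ g, f g = 1 → ∃ k : ℕ, g ^ p ^ k = 1) (hY : SylC p Y)
    {d : ℕ} (hd : ∃ χ : G → ℂ, IsIrrCharacter G χ ∧ χ 1 = d) (h2 : 2 ∣ d) (hpd : ¬ p ∣ d) : EvAt p G := by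
  revert f
  generalize hCdef : centralizer ({x} : Set G) = C
  intro f hf hk
  have hCm : ∀ g : G, g ∈ C ↔ g * x = x * g := fun g => by rw [← hCdef, mem_centralizer_singleton_iff]
  have hxC : x ∈ C := (hCm x).2 rfl
  -- a Sylow subgroup of `C`
  obtain ⟨Q⟩ : Nonempty (Sylow p C) := inferInstance
  -- it contains `x`
  have hxQ : (⟨x, hxC⟩ : C) ∈ (Q : Subgroup C) := by
    have hz : IsPGroup p (zpowers (⟨x, hxC⟩ : C)) := by
      obtain ⟨k, hk⟩ := hx
      rintro ⟨_, ⟨i, rfl⟩⟩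
      refine ⟨k, Subtype.ext (Subtype.ext ?_)⟩
      show (x ^ i) ^ p ^ k = 1
      rw [← zpow_natCast, ← zpow_mul, mul_comm, zpow_mul, zpow_natCast, hk, one_zpow]
    have hn : (zpowers (⟨x, hxC⟩ : C)).Normal := by
      refine ⟨fun c hc g => ?_⟩
      obtain ⟨i, rfl⟩ := mem_zpowers_iff.1 hc
      have h1 : Commute g (⟨x, hxC⟩ : C) := Subtype.ext ((hCm g).1 g.2)
      rw [(h1.zpow_right i).eq, mul_inv_cancel_right]
      exact zpow_mem (mem_zpowers _) i
    obtain ⟨Q', hQ'⟩ := hz.exists_le_sylow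
    obtain ⟨g, hg⟩ := MulAction.exists_smul_eq C Q' Q
    have h1 : MulAut.conj g (⟨x, hxC⟩ : C) ∈ (g • Q' : Sylow p C) :=
      Subgroup.smul_mem_pointwise_smul _ (MulAut.conj g) (Q' : Subgroup C) (hQ' (mem_zpowers _))
    rw [hg] at h1
    have h2 : MulAut.conj g (⟨x, hxC⟩ : C) = ⟨x, hxC⟩ := by
      rw [MulAut.conj_apply]
      have h3 : Commute g (⟨x, hxC⟩ : C) := Subtype.ext ((hCm g).1 g.2)
      rw [h3.eq, mul_inv_cancel_right]
    rwa [h2] at h1
  -- the Sylow subgroup of `G`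
  have hQG : IsPGroup p ((Q : Subgroup C).map C.subtype) := Q.2.map _
  obtain ⟨P, hP⟩ := hQG.exists_le_sylow
  refine evAt_of_sylow P ?_ hd h2 hpd
  intro g hg hgo hgp
  have hgQ : ∀ q ∈ (Q : Subgroup C), (q : G) * g = g * q := fun q hq => hg _ (hP ⟨q, hq, rfl⟩)
  have hgC : g ∈ C := (hCm g).2 (hgQ _ hxQ).symm
  have hgo' : orderOf (⟨g, hgC⟩ : C) = orderOf g := Subgroup.orderOf_mk g hgC
  -- the image
  have hfo : orderOf (f ⟨g, hgC⟩) = orderOf g := by
    have h3 : orderOf (f ⟨g, hgC⟩) ∣ orderOf g := by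
      rw [← hgo']
      exact orderOf_map_dvd f _
    rcases (Nat.dvd_prime hgo).1 h3 with h4 | h4
    · exfalso
      have h4' : f ⟨g, hgC⟩ = 1 := orderOf_eq_one_iff.1 h4
      obtain ⟨k, hk⟩ := hk _ h4'
      have h5 : orderOf g ∣ p ^ k := by
        rw [← hgo']
        exact orderOf_dvd_of_pow_eq_one hk
      exact hgp ((Nat.prime_dvd_prime_iff_eq hgo hp.out).1 (hgo.dvd_of_dvd_pow h5))
    · exact h4
  refine hY.all (Q.mapSurjective hf) (y := f ⟨g, hgC⟩) ?_ (by rw [hfo]; exact hgo) (by rw [hfo]; exact hgp)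
  rintro y hy
  have hy' : y ∈ (Q : Subgroup C).map f := by
    rwa [← Sylow.coe_mapSurjective hf Q]
  obtain ⟨q, hq, rfl⟩ := hy'
  rw [← map_mul, ← map_mul]
  exact congrArg f (Subtype.ext (hgQ q hq))

end Cfsg.Agent.H585.EP
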